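import Mathlib
import Cfsg.Agent.H544.LQ.Defs

/-!
# Latin automorphisms: counting, conjugates, subgroups and quotients (helper575, S4114)
-/

set_option autoImplicit false

namespace Cfsg.Agent.H575.LQ

open Cfsg Subgroup Cfsg.Agent.H459.Rad Cfsg.Agent.H459.Gallery Cfsg.Agent.H544.LQ

variable {G : Type*} [Group G]

/-- the fixed points of `x` -/
def fixS (x : MulAut G) : Subgroup G where
  carrier := {g | x g = g}
  one_mem' := map_one x
  mul_mem' {a b} ha hb := by
    show x (a * b) = a * b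
    rw [map_mul, show x a = a from ha, show x b = b from hb]
  inv_mem' {a} ha := by
    show x a⁻¹ = a⁻¹
    rw [map_inv, show x a = a from ha]

theorem mem_fixS {x : MulAut G} {g : G} : g ∈ fixS x ↔ x g = g := Iff.rfl

/-- the product map `C × G / C → G` -/
noncomputable def F (x : MulAut G) (p : fixS x × (G ⧸ fixS x)) : G :=
  (p.1 : G) * (p.2.out * (x p.2.out)⁻¹)

theorem F_mk (x : MulAut G) (c : fixS x) (g : G) : F x (c, (g : G ⧸ fixS x)) = (c : G) * (g * (x g)⁻¹) := by
  have h1 : ((g : G ⧸ fixS x).out : G ⧸ fixS x) = (g : G ⧸ fixS x) := QuotientGroup.out_eq' _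
  rw [QuotientGroup.eq, mem_fixS, map_mul, map_inv] at h1
  unfold F
  dsimp only
  congr 1
  have h2 : x g = x (g : G ⧸ fixS x).out * ((g : G ⧸ fixS x).out⁻¹ * g) := by
    rw [← h1]; group
  rw [h2]
  group

theorem F_inj {x : MulAut G} (h : Lat x) : Function.Injective (F x) := by
  rintro ⟨c, q⟩ ⟨c', q'⟩ he
  induction q using QuotientGroup.induction_on with
  | H g =>
  induction q' using QuotientGroup.induction_on with
  | H g' =>
  rw [F_mk, F_mk] at he
  have h1 : (c' : G)⁻¹ * c = 1 := by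
    refine h _ g⁻¹ g'⁻¹ (mem_fixS.1 (mul_mem (inv_mem c'.2) c.2)) ?_
    rw [map_inv, map_inv, inv_inv, inv_inv, mul_assoc, he]
    group
  have h2 : c = c' := by
    apply Subtype.ext
    rw [inv_mul_eq_one] at h1
    exact h1.symm
  subst h2
  rw [mul_right_inj] at he
  have h3 : (g : G ⧸ fixS x) = (g' : G ⧸ fixS x) := by
    rw [QuotientGroup.eq, mem_fixS, map_mul, map_inv]
    have h4 : x g' = (g' * (x g')⁻¹)⁻¹ * g' := by group
    rw [h4, ← he]
    group
  rw [h3]

theorem card_eq [Finite G] (x : MulAut G) : Nat.card (fixS x × (G ⧸ fixS x)) = Nat.card G := by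
  rw [Nat.card_prod, mul_comm, ← Subgroup.card_eq_card_quotient_mul_card_subgroup]

theorem F_surj [Finite G] {x : MulAut G} (h : Lat x) : Function.Surjective (F x) :=
  ((Nat.bijective_iff_injective_and_card (F x)).2 ⟨F_inj h, card_eq x⟩).2

theorem lat_of_F_surj [Finite G] {x : MulAut G} (h : Function.Surjective (F x)) : Lat x := by
  have hi : Function.Injective (F x) := ((Nat.bijective_iff_surjective_and_card (F x)).2 ⟨h, card_eq x⟩).1
  intro c g k hc he
  have h1 : F x (⟨c, hc⟩, (g⁻¹ : G)) = F x (1, (k⁻¹ : G)) := by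
    rw [F_mk, F_mk]
    simpa using he
  have h2 := hi h1
  exact congrArg (fun p : fixS x × (G ⧸ fixS x) => (p.1 : G)) h2

/-- every element is `c (k⁻¹ x k)` -/
theorem surj [Finite G] {x : MulAut G} (h : Lat x) (g : G) : ∃ c k : G, x c = c ∧ g = c * (k⁻¹ * x k) := by
  obtain ⟨⟨c, q⟩, hq⟩ := F_surj h g
  induction q using QuotientGroup.induction_on with
  | H k =>
  rw [F_mk] at hq
  exact ⟨c, k⁻¹, c.2, by rw [← hq, map_inv, inv_inv]⟩

theorem lat_of_surj [Finite G] {x : MulAut G} (h : ∀ g, ∃ c k : G, x c = c ∧ g = c * (k⁻¹ * x k)) : Lat x := by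
  refine lat_of_F_surj fun g => ?_
  obtain ⟨c, k, hc, he⟩ := h g
  exact ⟨(⟨c, hc⟩, (k⁻¹ : G)), by rw [F_mk, he, map_inv, inv_inv]⟩

/-- quotients -/
theorem lat_quot [Finite G] {H : Type*} [Group H] {q : G →* H} (hq : Function.Surjective q) {x : MulAut G}
    {x' : MulAut H} (hx : ∀ g, q (x g) = x' (q g)) (h : Lat x) : Lat x' := by
  have hf : Finite H := Finite.of_surjective q hq
  refine lat_of_surj fun g => ?_
  obtain ⟨g, rfl⟩ := hq g
  obtain ⟨c, k, hc, he⟩ := surj h g
  exact ⟨q c, q k, by rw [← hx, hc], by rw [← hx, ← map_inv, ← map_mul, ← map_mul, ← he]⟩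

/-- subgroups -/
theorem lat_sub {H : Type*} [Group H] {q : H →* G} (hq : Function.Injective q) {x : MulAut G}
    {x' : MulAut H} (hx : ∀ g, q (x' g) = x (q g)) (h : Lat x) : Lat x' := by
  intro c g k hc he
  have h1 : q c = 1 := by
    refine h (q c) (q g) (q k) ?_ ?_
    · rw [← hx, hc]
    · rw [← hx, ← hx, ← map_inv, ← map_inv, ← map_mul, ← map_mul, ← map_mul, he]
  exact hq (by rw [h1, map_one])

end Cfsg.Agent.H575.LQ
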