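import Mathlib
import Cfsg.Agent.H575.LQ.Lat

/-!
# A fixed point of a Latin automorphism on a product of 2-transitive spaces (helper575, S4114)

`A` an abelian normal subgroup of `G`, regular on `G / D`, `D` the intersection of the subgroups `H i`; `D` is transitive
on the elements outside of all `H i` (double coset). A Latin automorphism `y = a₀ z`, `z` fixing `D`, fixes some conjugate
of `D`.
-/

set_option autoImplicit false

namespace Cfsg.Agent.H575.LQ

open Cfsg Subgroup Cfsg.Agent.H459.Rad Cfsg.Agent.H459.Gallery Cfsg.Agent.H544.LQ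

variable {G : Type*} [Group G]

/-- restriction of an automorphism to an invariant subgroup -/
noncomputable def res (y : MulAut G) (A : Subgroup G) (h : A.map y.toMonoidHom = A) : MulAut A :=
  (y.subgroupMap A).trans (MulEquiv.subgroupCongr h)

theorem res_apply (y : MulAut G) (A : Subgroup G) (h : A.map y.toMonoidHom = A) (a : A) :
    ((res y A h a : A) : G) = y a := rfl

theorem lat_res {y : MulAut G} (hy : Lat y) {A : Subgroup G} (h : A.map y.toMonoidHom = A) : Lat (res y A h) :=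
  lat_sub (q := A.subtype) A.subtype_injective (fun g => res_apply y A h g) hy

theorem lat_cx [Finite G] {y : MulAut G} (hy : Lat y) (g : G) : Lat (cx y g) := by
  intro c a b hc he
  rw [cx_apply] at hc
  have h1 : g * c * g⁻¹ = 1 := by
    refine hy _ (g * a * g⁻¹) (g * b * g⁻¹) ?_ ?_
    · have h2 : y (g * c * g⁻¹) = g * (g⁻¹ * y (g * c * g⁻¹) * g) * g⁻¹ := by group
      rw [h2, hc]
    · rw [cx_apply, cx_apply] at he
      have h3 : g * c * g⁻¹ * ((g * a * g⁻¹)⁻¹ * y (g * a * g⁻¹)) =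
          g * (c * (a⁻¹ * (g⁻¹ * y (g * a * g⁻¹) * g))) * g⁻¹ := by group
      rw [h3, he]
      group
  rw [mul_inv_eq_one, mul_eq_left] at h1
  exact h1

/-- **fixed point on a product.** -/
theorem abs [Finite G] {y : MulAut G} (hy : Lat y) {ι : Type*} [Finite ι] (H : ι → Subgroup G) (D A : Subgroup G)
    (hD : ∀ g, g ∈ D ↔ ∀ i, g ∈ H i)
    (hcore : ∀ N : Subgroup G, N.Normal → N ≤ D → N = ⊥)
    (hAn : A.Normal) (hAc : ∀ a ∈ A, ∀ b ∈ A, a * b = b * a) (hyA : Iv y A)
    (hAD : ∀ g : G, ∃ a ∈ A, ∃ d ∈ D, g = a * d)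
    (hgen : ∀ g g', (∀ i, g ∉ H i) → (∀ i, g' ∉ H i) → ∃ d ∈ D, ∃ d' ∈ D, g' = d * g * d')
    (hind : ∀ i, ∃ u ∈ A, ∃ v ∈ A, (∀ j, j ≠ i → u ∈ H j ∧ v ∈ H j) ∧ u ∉ H i ∧ v ∉ H i ∧ u⁻¹ * v ∉ H i)
    (τ : Equiv.Perm ι) (hτ : ∀ a ∈ A, ∀ i, y a ∈ H (τ i) ↔ a ∈ H i) (hτ1 : (∀ i, τ i ≠ i) ∨ Subsingleton ι)
    (hfix : ∀ c ∈ A, y c = c → c ≠ 1 → ∀ i, c ∉ H i)
    {a₀ : G} (ha₀ : a₀ ∈ A) {z : MulAut G} (hz : Iv z D) (hyz : ∀ g, y g = a₀ * z g * a₀⁻¹) :
    ∃ k ∈ A, Iv (cx y k) D := by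
  classical
  have hADb : ∀ g, g ∈ A → g ∈ D → g = 1 := by
    have h1 : A ⊓ D = ⊥ := by
      refine hcore _ ⟨?_⟩ inf_le_right
      rintro n ⟨hnA, hnD⟩ g
      obtain ⟨a, ha, d, hd, rfl⟩ := hAD g
      have h2 : d * n * d⁻¹ ∈ A := hAn.conj_mem n hnA d
      have h3 : a * d * n * (a * d)⁻¹ = d * n * d⁻¹ := by
        have h4 := hAc a ha _ h2
        have h5 : a * d * n * (a * d)⁻¹ = (a * (d * n * d⁻¹)) * a⁻¹ := by group
        rw [h5, h4]; group
      rw [h3]
      exact ⟨h2, D.mul_mem (D.mul_mem hd hnD) (D.inv_mem hd)⟩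
    intro g hg hg'
    have : g ∈ A ⊓ D := ⟨hg, hg'⟩
    rwa [h1, mem_bot] at this
  have hye : ∀ k ∈ A, k⁻¹ * y k ∈ A := fun k hk => mul_mem (inv_mem hk) (hyA k hk)
  -- the decomposition of `a₀`
  obtain ⟨k, hk, hc⟩ : ∃ k ∈ A, y (k⁻¹ * y k * a₀) = k⁻¹ * y k * a₀ := by
    obtain ⟨c, k, hc, he⟩ := surj (lat_res hy (A := A) hyA.map_eq) ⟨a₀, ha₀⟩
    have hc' : y (c : G) = c := by
      rw [← res_apply y A hyA.map_eq c, hc]
    have he' : a₀ = c * ((k : G)⁻¹ * y k) := congrArg Subtype.val he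
    refine ⟨(k : G)⁻¹, inv_mem k.2, ?_⟩
    have h1 : ((k : G)⁻¹)⁻¹ * y (k : G)⁻¹ * a₀ = c := by
      rw [he', map_inv, inv_inv]
      have h2 := hAc _ (mul_mem k.2 (inv_mem (hyA k k.2))) c c.2
      calc (k : G) * (y k)⁻¹ * (c * ((k : G)⁻¹ * y k)) = ((k : G) * (y k)⁻¹ * c) * ((k : G)⁻¹ * y k) := by group
        _ = c * ((k : G) * (y k)⁻¹) * ((k : G)⁻¹ * y k) := by rw [h2]
        _ = c * (((k : G) * (y k)⁻¹) * ((k : G)⁻¹ * y k)) := by group
        _ = c * (((k : G)⁻¹ * y k) * ((k : G) * (y k)⁻¹)) := by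
            rw [hAc _ (mul_mem k.2 (inv_mem (hyA k k.2))) _ (hye k k.2)]
        _ = c * ((k : G)⁻¹ * (y k * (k : G)) * (y k)⁻¹) := by group
        _ = c * ((k : G)⁻¹ * ((k : G) * y k) * (y k)⁻¹) := by rw [hAc _ (hyA k k.2) _ k.2]
        _ = c := by group
    rw [h1, hc']
  set c := k⁻¹ * y k * a₀ with hcdef
  have hcA : c ∈ A := mul_mem (hye k hk) ha₀
  have hcx : ∀ g, cx y k g = c * z g * c⁻¹ := by
    intro g
    rw [cx_apply', hyz g, hcdef]
    group
  by_cases hc1 : c = 1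
  · refine ⟨k, hk, fun d hd => ?_⟩
    rw [hcx, hc1, one_mul, inv_one, mul_one]
    exact hz d hd
  exfalso
  have hcgen := hfix c hcA hc hc1
  have key : ∀ k ∈ A, ∃ i, k⁻¹ * y k ∈ H i := by
    intro k' hk'
    by_contra hcon
    push Not at hcon
    obtain ⟨d, hd, d', hd', he⟩ := hgen _ c hcon hcgen
    have h1 : d * (k'⁻¹ * y k') * d⁻¹ ∈ A := hAn.conj_mem _ (hye k' hk') d
    have h2 : d * d' = 1 := by
      refine hADb _ ?_ (mul_mem hd hd')
      have h3 : d * d' = (d * (k'⁻¹ * y k') * d⁻¹)⁻¹ * c := by rw [he]; group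
      rw [h3]
      exact mul_mem (inv_mem h1) hcA
    have h4 : c = d * (k'⁻¹ * y k') * d⁻¹ := by
      rw [he, (eq_inv_of_mul_eq_one_right h2)]
    apply hc1
    refine hy c d⁻¹ (k' * d⁻¹) hc ?_
    conv_lhs => rw [h4]
    rw [map_mul]
    group
  rcases hτ1 with hτ1 | hι
  · -- no fixed points: minimise the number of bad indices
    let bad : G → Set ι := fun k => {i | k⁻¹ * y k ∈ H i}
    obtain ⟨k, hkA, hmin⟩ := Set.exists_min_image {k : G | k ∈ A} (fun k => (bad k).ncard) (Set.toFinite _)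
      ⟨1, one_mem A⟩
    have hkA' : k ∈ A := hkA
    obtain ⟨i, hi⟩ := key k hkA'
    obtain ⟨u, huA, v, hvA, huv, hu, hv, huvi⟩ := hind i
    -- the change
    have hch : ∀ w ∈ A, (∀ j, j ≠ i → w ∈ H j) → w ∉ H i →
        (k⁻¹ * y k * y w ∈ H (τ i) → False) → False := by
      intro w hwA hw hwi hwt
      have hkw : k * w ∈ A := mul_mem hkA' hwA
      have he : (k * w)⁻¹ * y (k * w) = w⁻¹ * (k⁻¹ * y k * y w) := by rw [map_mul]; group
      have hsub : bad (k * w) ⊆ bad k \ {i} := by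
        intro j hj
        have hj' : w⁻¹ * (k⁻¹ * y k * y w) ∈ H j := by rw [← he]; exact hj
        have hji : j ≠ i := by
          rintro rfl
          have h1 : y w ∈ H j := by
            have h2 := hτ w hwA (τ.symm j)
            rw [Equiv.apply_symm_apply] at h2
            refine h2.2 (hw _ fun h3 => hτ1 j ?_)
            conv_lhs => rw [← h3]
            exact Equiv.apply_symm_apply _ _
          apply hwi
          have h2 : w = (k⁻¹ * y k * y w) * (w⁻¹ * (k⁻¹ * y k * y w))⁻¹ := by group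
          rw [h2]
          exact (H j).mul_mem ((H j).mul_mem hi h1) ((H j).inv_mem hj')
        have hwj : w ∈ H j := hw j hji
        have h1 : k⁻¹ * y k * y w ∈ H j := by
          have h2 : k⁻¹ * y k * y w = w * (w⁻¹ * (k⁻¹ * y k * y w)) := by group
          rw [h2]
          exact (H j).mul_mem hwj hj'
        have hjt : j ≠ τ i := by
          rintro rfl
          exact hwt h1
        refine ⟨?_, hji⟩
        have h3 : y w ∈ H j := by
          have h2 := hτ w hwA (τ.symm j)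
          rw [Equiv.apply_symm_apply] at h2
          refine h2.2 (hw _ fun h3 => hjt ?_)
          rw [← h3, Equiv.apply_symm_apply]
        show k⁻¹ * y k ∈ H j
        have h4 : k⁻¹ * y k = (k⁻¹ * y k * y w) * (y w)⁻¹ := by group
        rw [h4]
        exact (H j).mul_mem h1 ((H j).inv_mem h3)
      have h1 := Set.ncard_le_ncard hsub (Set.toFinite _)
      have h2 : (bad k \ {i}).ncard < (bad k).ncard := Set.ncard_sdiff_singleton_lt_of_mem hi (Set.toFinite _)
      have h3 : (bad k).ncard ≤ (bad (k * w)).ncard := hmin (k * w) hkw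
      omega
    refine hch u huA (fun j hj => (huv j hj).1) hu fun h1 => ?_
    refine hch v hvA (fun j hj => (huv j hj).2) hv fun h2 => huvi ?_
    rw [← hτ _ (mul_mem (inv_mem huA) hvA)]
    have h3 : y (u⁻¹ * v) = (k⁻¹ * y k * y u)⁻¹ * (k⁻¹ * y k * y v) := by
      rw [map_mul, map_inv]
      group
    rw [h3]
    exact (H _).mul_mem ((H _).inv_mem h1) h2
  · -- one factor
    obtain ⟨i, -⟩ := key 1 (one_mem A)
    have hDi : ∀ g, g ∈ D ↔ g ∈ H i := fun g => by
      rw [hD]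
      exact ⟨fun h => h i, fun h j => by rwa [Subsingleton.elim j i]⟩
    have hyA1 : ∀ a ∈ A, y a = a := by
      intro a ha
      obtain ⟨j, hj⟩ := key a ha
      have h1 : a⁻¹ * y a ∈ D := by rw [hDi, Subsingleton.elim i j]; exact hj
      have h2 := hADb _ (hye a ha) h1
      rw [inv_mul_eq_one] at h2
      exact h2.symm
    have hcent : D ⊓ centralizer (A : Set G) = ⊥ := by
      refine hcore _ ⟨?_⟩ inf_le_left
      rintro n ⟨hnD, hnA⟩ g
      obtain ⟨a, ha, d, hd, rfl⟩ := hAD g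
      have h1 : d * n * d⁻¹ ∈ centralizer (A : Set G) := by
        have : (centralizer (A : Set G)).Normal := inferInstance
        exact this.conj_mem n hnA d
      have h2 : a * d * n * (a * d)⁻¹ = d * n * d⁻¹ := by
        have h4 : a * (d * n * d⁻¹) = d * n * d⁻¹ * a := mem_centralizer_iff.1 h1 a ha
        have h5 : a * d * n * (a * d)⁻¹ = (a * (d * n * d⁻¹)) * a⁻¹ := by group
        rw [h5, h4]; group
      rw [h2]
      exact ⟨D.mul_mem (D.mul_mem hd hnD) (D.inv_mem hd), h1⟩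
    have hzd : ∀ d ∈ D, z d = d := by
      intro d hd
      have h1 : d⁻¹ * z d ∈ D ⊓ centralizer (A : Set G) := by
        refine ⟨D.mul_mem (D.inv_mem hd) (hz d hd), ?_⟩
        show d⁻¹ * z d ∈ centralizer (A : Set G)
        rw [mem_centralizer_iff]
        intro b hb
        have hb' : b ∈ A := hb
        have h2 : d * b * d⁻¹ ∈ A := hAn.conj_mem b hb' d
        have h3 : z d * b * (z d)⁻¹ ∈ A := hAn.conj_mem b hb' (z d)
        have h4 := hyA1 _ h2
        rw [map_mul, map_mul, map_inv, hyA1 b hb', hyz d] at h4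
        have h5 : a₀ * z d * a₀⁻¹ * b * (a₀ * z d * a₀⁻¹)⁻¹ = a₀ * (z d * (a₀⁻¹ * b * a₀) * (z d)⁻¹) * a₀⁻¹ := by
          group
        have h6 : a₀⁻¹ * b * a₀ = b := by
          rw [mul_assoc, hAc b hb' a₀ ha₀]; group
        rw [h5, h6, hAc a₀ ha₀ _ h3] at h4
        have h7 : z d * b * (z d)⁻¹ = d * b * d⁻¹ := by
          rw [← h4]; group
        have h8 : b * (d⁻¹ * z d) = d⁻¹ * (d * b * d⁻¹) * z d := by group
        rw [h8, ← h7]
        group
      rw [hcent, mem_bot, inv_mul_eq_one] at h1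
      exact h1.symm
    have hcd : ∀ d ∈ D, c * d = d * c := by
      intro d hd
      have hca : c = a₀ := by
        rw [hcdef, hyA1 k hk]; group
      have h1 : d⁻¹ * y d = d⁻¹ * a₀ * d * a₀⁻¹ := by rw [hyz, hzd d hd]; group
      have h2 : d⁻¹ * y d ∈ A := by
        rw [h1]
        have h3 := hAn.conj_mem a₀ ha₀ d⁻¹
        rw [inv_inv] at h3
        exact mul_mem h3 (inv_mem ha₀)
      have h3 : d⁻¹ * y d = 1 := by
        refine hy _ 1 d (hyA1 _ h2) ?_
        simp
      rw [h1] at h3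
      rw [hca]
      have h4 : d⁻¹ * a₀ * d = a₀ := by
        rwa [mul_inv_eq_one] at h3
      calc a₀ * d = d * (d⁻¹ * a₀ * d) := by group
        _ = d * a₀ := by rw [h4]
    obtain ⟨u, huA, v, hvA, -, hu, hv, huv⟩ := hind i
    have huniq : ∀ w ∈ A, w ∉ H i → w = c := by
      intro w hw hwi
      obtain ⟨d, hd, d', hd', he⟩ := hgen c w hcgen (fun j => by rwa [Subsingleton.elim j i])
      rw [← hcd d hd] at he
      have h1 : c⁻¹ * w = 1 := by
        refine hADb _ (mul_mem (inv_mem hcA) hw) ?_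
        rw [he]
        have h2 : c⁻¹ * (c * d * d') = d * d' := by group
        rw [h2]
        exact mul_mem hd hd'
      rw [inv_mul_eq_one] at h1
      exact h1.symm
    apply huv
    rw [huniq u huA hu, huniq v hvA hv, inv_mul_cancel]
    exact one_mem _

end Cfsg.Agent.H575.LQ
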