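import Mathlib
import Cfsg.Agent.H459.NonEll

/-!
# Parabolic subgroups with commuting nodes (helper575, S4114)
-/

set_option autoImplicit false
set_option linter.unusedSectionVars false

namespace Cfsg.Agent.H575.LQ

open Cfsg Subgroup Cfsg.Agent.H459.Rad Cfsg.Agent.H459.Gallery Cfsg.Agent.H459.NonEll
open Cfsg.Agent.Schreier.BNSch

variable {K : Type*} [Group K] [Finite K] (P : BNPair K)

/-- intersection of maximal parabolic subgroups of `P_J` -/
theorem mem_sdiff {J O : Set K} (hJ : J ⊆ P.S) {g : K} (hg : g ∈ P.parabolic J)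
    (h : ∀ s ∈ O, g ∈ P.parabolic (J \ {s})) : g ∈ P.parabolic (J \ O) := by
  let T : Subgroup K := P.parabolic J ⊓ ⨅ s : O, P.parabolic (J \ {(s : K)})
  have hBT : P.B ≤ T := le_inf (B_le_parabolic P _) (le_iInf fun s => B_le_parabolic P _)
  obtain ⟨L, hL, hTL⟩ := Cfsg.Agent.S0311.result P T hBT
  have hLJ : L ⊆ J := by
    rw [← parabolic_le_iff P hL hJ, ← hTL]
    exact inf_le_left
  have hLO : L ⊆ J \ O := by
    intro s hs
    refine ⟨hLJ hs, fun hsO => ?_⟩
    have h1 : L ⊆ J \ {s} := by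
      rw [← parabolic_le_iff P hL (Set.sdiff_subset.trans hJ), ← hTL]
      exact inf_le_right.trans (iInf_le _ (⟨s, hsO⟩ : O))
    exact (h1 hs).2 rfl
  have h1 : g ∈ T := ⟨hg, by
    show g ∈ (⨅ s : O, P.parabolic (J \ {(s : K)}) : Subgroup K)
    rw [Subgroup.mem_iInf]
    exact fun s => h s s.2⟩
  rw [hTL] at h1
  exact parabolic_mono P hLO h1

/-- the elements of `P_J` outside of all `P_{J ∖ s}`, `s ∈ O`, form a double coset -/
theorem exists_rep {J : Set K} (hJ : J ⊆ P.S) (hc : ∀ s ∈ J, ∀ t ∈ J, s ≠ t → s * t * s⁻¹ * t⁻¹ ∈ P.B) :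
    ∀ (O : Set K), O ⊆ J → ∃ w, w ∈ P.N ∧ w ∈ P.parabolic O ∧ ∀ g ∈ P.parabolic J,
      (∀ s ∈ O, g ∉ P.parabolic (J \ {s})) → ∃ d ∈ P.parabolic (J \ O), ∃ b ∈ P.B, g = d * w * b := by
  intro O hO
  refine Set.Finite.induction_on_subset (motive := fun O _ => ∃ w, w ∈ P.N ∧ w ∈ P.parabolic O ∧
    ∀ g ∈ P.parabolic J, (∀ s ∈ O, g ∉ P.parabolic (J \ {s})) →
      ∃ d ∈ P.parabolic (J \ O), ∃ b ∈ P.B, g = d * w * b) O (Set.toFinite O) ?_ ?_
  · refine ⟨1, one_mem _, one_mem _, fun g hg _ => ⟨g, ?_, 1, one_mem _, by group⟩⟩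
    rwa [Set.sdiff_empty]
  · rintro t Q htO hQO htQ ⟨w, hwN, hwQ, hw⟩
    have htJ : t ∈ J := hO htO
    have hQJ : Q ⊆ J := hQO.trans hO
    refine ⟨t * w, P.N.mul_mem (P.subset (hJ htJ)) hwN, ?_, fun g hg hgen => ?_⟩
    · exact mul_mem (closure_le_parabolic P _ (Set.mem_insert _ _))
        (parabolic_mono P (Set.subset_insert _ _) hwQ)
    · obtain ⟨d, hd, b, hb, he⟩ := hw g hg fun s hs => hgen s (Set.mem_insert_of_mem _ hs)
      have hJ' : insert t (J \ insert t Q) = J \ Q := by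
        ext u
        simp only [Set.mem_insert_iff, Set.mem_sdiff]
        constructor
        · rintro (rfl | ⟨h1, h2⟩)
          · exact ⟨htJ, htQ⟩
          · exact ⟨h1, fun h3 => h2 (Or.inr h3)⟩
        · rintro ⟨h1, h2⟩
          by_cases h3 : u = t
          · exact Or.inl h3
          · exact Or.inr ⟨h1, fun h4 => h4.elim h3 h2⟩
      have hsub : J \ insert t Q ⊆ P.S := Set.sdiff_subset.trans hJ
      have hd' : d⁻¹ ∈ P.parabolic (insert t (J \ insert t Q)) := by rw [hJ']; exact inv_mem hd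
      obtain ⟨a, ha, z, hz, hdz⟩ := exists_mul P hsub (hJ htJ) (fun u hu => hc t htJ u hu.1 fun h => hu.2 (by
        rw [h]; exact Set.mem_insert _ _)) hd'
      have hdz' : d = z⁻¹ * a⁻¹ := by
        rw [← mul_inv_rev, ← hdz, inv_inv]
      -- `w, b, z` are in `P_{J ∖ t}`
      have hQt : Q ⊆ J \ {t} := fun u hu => ⟨hQJ hu, fun h => htQ (by
        rw [← Set.mem_singleton_iff.1 h]; exact hu)⟩
      have hwt : w ∈ P.parabolic (J \ {t}) := parabolic_mono P hQt hwQ
      have hzt : z ∈ P.parabolic (J \ {t}) := parabolic_mono P (Set.sdiff_subset_sdiff_right (by simp)) hz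
      have haB : a⁻¹ ∉ P.B := by
        intro haB
        apply hgen t (Set.mem_insert _ _)
        rw [he, hdz']
        exact mul_mem (mul_mem (mul_mem (inv_mem hzt) (B_le_parabolic P _ haB)) hwt) (B_le_parabolic P _ hb)
      rcases mem_parabolic_singleton P (hJ htJ) (inv_mem ha) with h1 | ⟨b₁, hb₁, b₂, hb₂, h1⟩
      · exact absurd h1 haB
      rcases P.mul_mem_union t (hJ htJ) w hwN b₂ hb₂ with h2 | h2
      · obtain ⟨c, hc1, c', hc', h3⟩ := DoubleCoset.mem_doubleCoset.1 h2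
        refine ⟨z⁻¹ * b₁ * c, mul_mem (mul_mem (inv_mem hz) (B_le_parabolic P _ hb₁)) (B_le_parabolic P _ hc1),
          c' * b, mul_mem hc' hb, ?_⟩
        rw [he, hdz', h1]
        have h4 : z⁻¹ * (b₁ * t * b₂) * w * b = z⁻¹ * b₁ * (t * b₂ * w) * b := by group
        rw [h4, h3]
        group
      · exfalso
        obtain ⟨c, hc1, c', hc', h3⟩ := DoubleCoset.mem_doubleCoset.1 h2
        have h4 : t = c * w * c' * w⁻¹ * b₂⁻¹ := by
          rw [← h3]; group
        have h5 : t ∈ P.parabolic Q := by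
          rw [h4]
          exact mul_mem (mul_mem (mul_mem (mul_mem (B_le_parabolic P _ hc1) hwQ) (B_le_parabolic P _ hc'))
            (inv_mem hwQ)) (inv_mem (B_le_parabolic P _ hb₂))
        have h6 : P.parabolic {t} ≤ P.parabolic Q := by
          refine sup_le (B_le_parabolic P _) ?_
          rw [closure_le]
          exact Set.singleton_subset_iff.2 h5
        rw [parabolic_le_iff P (Set.singleton_subset_iff.2 (hJ htJ)) (hQJ.trans hJ)] at h6
        exact htQ (h6 rfl)

/-- three cosets of `B` in `P_s` -/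
theorem exists_two {s : K} (hs : s ∈ P.S) : ∃ m₁ ∈ P.parabolic {s}, ∃ m₂ ∈ P.parabolic {s},
    m₁ ∉ P.B ∧ m₂ ∉ P.B ∧ m₁⁻¹ * m₂ ∉ P.B := by
  refine ⟨s, mem_parabolic_self P s, ?_⟩
  by_contra hcon
  push Not at hcon
  have hsB := not_mem_B P hs
  have h1 : ∀ b ∈ P.B, s⁻¹ * b * s ∈ P.B := by
    intro b hb
    have h2 : b * s ∈ P.parabolic {s} := mul_mem (B_le_parabolic P _ hb) (mem_parabolic_self P s)
    have h3 : b * s ∉ P.B := fun h3 => hsB (by
      have := mul_mem (inv_mem hb) h3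
      rwa [inv_mul_cancel_left] at this)
    have h4 := hcon (b * s) h2 hsB h3
    rwa [← mul_assoc] at h4
  have h2 : s⁻¹ ∈ normalizer (P.B : Set K) := by
    rw [Subgroup.mem_normalizer_iff_map_conj_eq]
    refine Subgroup.eq_of_le_of_card_ge ?_ (le_of_eq (Subgroup.card_map_of_injective
      (K := P.B) (MulAut.conj s⁻¹).injective).symm)
    rintro _ ⟨b, hb, rfl⟩
    show s⁻¹ * b * (s⁻¹)⁻¹ ∈ P.B
    rw [inv_inv]
    exact h1 b hb
  have h3 : normalizer (P.B : Set K) = P.B := by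
    have := Cfsg.Agent.S0312.result P (J := ∅) (Set.empty_subset _)
    rwa [parabolic_empty] at this
  rw [h3] at h2
  exact hsB (by simpa using inv_mem h2)

/-- an automorphism fixing `B` and `P_J` permutes the `P_{J ∖ s}` -/
theorem exists_coatom {z : MulAut K} (hB : Iv z P.B) {J : Set K} (hJ : J ⊆ P.S) (hzJ : Iv z (P.parabolic J))
    {s : K} (hs : s ∈ J) : ∃ t ∈ J, (P.parabolic (J \ {s})).map z.toMonoidHom = P.parabolic (J \ {t}) := by
  have hJs : J \ {s} ⊆ P.S := Set.sdiff_subset.trans hJ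
  have hne : P.parabolic (J \ {s}) ≠ P.parabolic J := by
    intro h
    have h1 : J ⊆ J \ {s} := by rw [← parabolic_le_iff P hJ hJs, h]
    exact (h1 hs).2 rfl
  set T := (P.parabolic (J \ {s})).map z.toMonoidHom with hT
  have hBT : P.B ≤ T := by
    rw [← hB.map_eq]
    exact Subgroup.map_mono (B_le_parabolic P _)
  have hTJ : T ≤ P.parabolic J := by
    rw [← hzJ.map_eq]
    exact Subgroup.map_mono (parabolic_mono P Set.sdiff_subset)
  obtain ⟨L, hL, hTL⟩ := Cfsg.Agent.S0311.result P T hBT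
  have hLJ : L ⊆ J := by
    rw [← parabolic_le_iff P hL hJ, ← hTL]
    exact hTJ
  have hLne : ∃ t ∈ J, t ∉ L := by
    by_contra hcon
    push Not at hcon
    have h1 : T = P.parabolic J := by rw [hTL, Set.Subset.antisymm hLJ hcon]
    apply hne
    refine Subgroup.map_injective (f := z.toMonoidHom) z.injective ?_
    show T = (P.parabolic J).map z.toMonoidHom
    rw [h1, hzJ.map_eq]
  obtain ⟨t, htJ, htL⟩ := hLne
  refine ⟨t, htJ, ?_⟩
  have hJt : J \ {t} ⊆ P.S := Set.sdiff_subset.trans hJ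
  have h1 : T ≤ P.parabolic (J \ {t}) := by
    rw [hTL, parabolic_le_iff P hL hJt]
    exact fun u hu => ⟨hLJ hu, fun h => htL (Set.mem_singleton_iff.1 h ▸ hu)⟩
  -- pull back
  set T' := (P.parabolic (J \ {t})).comap z.toMonoidHom with hT'
  have h2 : P.parabolic (J \ {s}) ≤ T' := Subgroup.map_le_iff_le_comap.1 h1
  obtain ⟨L', hL', hTL'⟩ := Cfsg.Agent.S0311.result P T' ((B_le_parabolic P _).trans h2)
  have hzJ' := hzJ.map_eq
  have h3 : T' ≤ P.parabolic J := by
    intro a ha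
    have h4 : z a ∈ P.parabolic J := parabolic_mono P Set.sdiff_subset ha
    rw [← hzJ'] at h4
    obtain ⟨a', ha', h5⟩ := h4
    rwa [← z.injective h5]
  have h4 : L' ⊆ J := by
    rw [← parabolic_le_iff P hL' hJ, ← hTL']
    exact h3
  have h5 : J \ {s} ⊆ L' := by
    rw [← parabolic_le_iff P hJs hL', ← hTL']
    exact h2
  have h6 : s ∉ L' := by
    intro hsL
    have h7 : L' = J := by
      apply Set.Subset.antisymm h4
      intro u hu
      by_cases h8 : u = s
      · rwa [h8]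
      · exact h5 ⟨hu, h8⟩
    rw [h7] at hTL'
    have h8 : P.parabolic J ≤ P.parabolic (J \ {t}) := by
      intro a ha
      rw [← hzJ'] at ha
      obtain ⟨a', ha', rfl⟩ := ha
      have h9 : a' ∈ T' := by rw [hTL']; exact ha'
      exact h9
    rw [parabolic_le_iff P hJ hJt] at h8
    exact (h8 htJ).2 rfl
  have h7 : T' = P.parabolic (J \ {s}) := by
    rw [hTL']
    congr 1
    apply Set.Subset.antisymm _ h5
    exact fun u hu => ⟨h4 hu, fun h => h6 (Set.mem_singleton_iff.1 h ▸ hu)⟩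
  rw [hT, ← h7, hT', Subgroup.map_comap_eq_self_of_surjective z.surjective]

end Cfsg.Agent.H575.LQ
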