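import Mathlib
import Cfsg.Agent.H544.LQ.Frame
import Cfsg.Agent.H575.LQ.Abs
import Cfsg.Agent.H575.LQ.BNGen
import Cfsg.Agent.Lib.SolvableMinNormal

/-!
# A Latin automorphism fixing a proper parabolic subgroup fixes a Borel subgroup (helper575, S4114, LQ-BOR)
-/

set_option autoImplicit false
set_option linter.unusedSectionVars false

namespace Cfsg.Agent.H575.LQ

open Cfsg Subgroup Cfsg.Agent.H459.Rad Cfsg.Agent.H459.Gallery Cfsg.Agent.H459.NonEll Cfsg.Agent.H544.LQ
open Cfsg.Agent.Schreier.BNSch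

theorem core_map {G : Type*} [Group G] [Finite G] (φ : MulAut G) {D : Subgroup G}
    (h : D.map φ.toMonoidHom = D) : D.normalCore.map φ.toMonoidHom = D.normalCore := by
  refine Subgroup.eq_of_le_of_card_ge ?_ (le_of_eq (Subgroup.card_map_of_injective
    (K := D.normalCore) φ.injective).symm)
  have : (D.normalCore.map φ.toMonoidHom).Normal := Subgroup.Normal.map inferInstance _ φ.surjective
  rw [Subgroup.normal_le_normalCore]
  conv_rhs => rw [← h]
  exact Subgroup.map_mono D.normalCore_le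

variable {K : Type*} [Group K] [Finite K] (P : BNPair K)

/-- **The step**: a Latin automorphism fixing `P_J`, `P_J` solvable, fixes a smaller parabolic subgroup. -/
theorem step {y z : MulAut K} (hy : Lat y) {J : Set K} (hJ : J ⊆ P.S) (hJn : J.Nonempty)
    (hyJ : Iv y (P.parabolic J)) (hsol : Group.IsSolvable (P.parabolic J))
    (hc : ∀ s ∈ J, ∀ t ∈ J, s ≠ t → s * t * s⁻¹ * t⁻¹ ∈ P.B) {m : K} (hm : m ∈ P.parabolic J)
    (hz : z = MulAut.conj m * y) (hzB : Iv z P.B) :
    ∃ k ∈ P.parabolic J, ∃ O ⊆ J, O.Nonempty ∧ Iv (cx y k) (P.parabolic (J \ O)) := by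
  classical
  set M := P.parabolic J with hM
  have hzJ : Iv z M := by rw [hz]; exact iv_conj_mul hm hyJ
  obtain ⟨O, hO, hmin⟩ := Set.exists_min_image {O : Set K | O ⊆ J ∧ O.Nonempty ∧ Iv z (P.parabolic (J \ O))}
    Set.ncard (Set.toFinite _) ⟨J, le_rfl, hJn, by rw [sdiff_self, Set.bot_eq_empty, parabolic_empty]; exact hzB⟩
  obtain ⟨hOJ, hOn, hzD⟩ := hO
  set D := P.parabolic (J \ O) with hD
  have hDM : D ≤ M := parabolic_mono P Set.sdiff_subset
  have hJO : J \ O ⊆ P.S := Set.sdiff_subset.trans hJ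
  have hDsub : ∀ i ∈ O, D ≤ P.parabolic (J \ {i}) := fun i hi =>
    parabolic_mono P (Set.sdiff_subset_sdiff_right (Set.singleton_subset_iff.2 hi))
  let yM : MulAut M := res y M hyJ.map_eq
  let zM : MulAut M := res z M hzJ.map_eq
  let m' : M := ⟨m, hm⟩
  have hyz : ∀ g : M, yM g = m'⁻¹ * zM g * m' := by
    intro g
    apply Subtype.ext
    show y g = m⁻¹ * z g * m
    rw [hz, MulAut.mul_apply, MulAut.conj_apply]
    group
  let D' : Subgroup M := D.subgroupOf M
  have hzD' : D'.map zM.toMonoidHom = D' := by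
    refine Subgroup.eq_of_le_of_card_ge ?_ (le_of_eq (Subgroup.card_map_of_injective
      (K := D') zM.injective).symm)
    rintro _ ⟨d, hd, rfl⟩
    exact hzD d hd
  let N0 : Subgroup M := D'.normalCore
  have hN0 : N0.Normal := Subgroup.normalCore_normal D'
  have hN0D : N0 ≤ D' := D'.normalCore_le
  have hzN : N0.map zM.toMonoidHom = N0 := core_map zM hzD'
  have hyN : N0.map yM.toMonoidHom = N0 := by
    refine Subgroup.eq_of_le_of_card_ge ?_ (le_of_eq (Subgroup.card_map_of_injective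
      (K := N0) yM.injective).symm)
    rintro _ ⟨d, hd, rfl⟩
    show yM d ∈ N0
    rw [hyz]
    have h1 : zM d ∈ N0 := by rw [← hzN]; exact ⟨d, hd, rfl⟩
    have h2 := hN0.conj_mem _ h1 m'⁻¹
    rwa [inv_inv] at h2
  let q : M →* M ⧸ N0 := QuotientGroup.mk' N0
  have hq : Function.Surjective q := QuotientGroup.mk'_surjective N0
  let yq : MulAut (M ⧸ N0) := QuotientGroup.congr N0 N0 yM hyN
  let zq : MulAut (M ⧸ N0) := QuotientGroup.congr N0 N0 zM hzN
  have hyq : ∀ g, q (yM g) = yq (q g) := fun g => rfl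
  have hzq : ∀ g, q (zM g) = zq (q g) := fun g => rfl
  have hlat : Lat yq := lat_quot hq hyq (lat_res hy _)
  have memq : ∀ X : Subgroup M, N0 ≤ X → ∀ g : M, q g ∈ X.map q ↔ g ∈ X := by
    intro X hX g
    constructor
    · rintro ⟨x, hx, he⟩
      have h1 : x⁻¹ * g ∈ N0 := QuotientGroup.eq.1 he
      have h2 := X.mul_mem hx (hX h1)
      rwa [mul_inv_cancel_left] at h2
    · exact fun h => ⟨g, h, rfl⟩
  let Db : Subgroup (M ⧸ N0) := D'.map q
  have memD : ∀ g : M, q g ∈ Db ↔ (g : K) ∈ D := fun g => memq D' hN0D g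
  let H : O → Subgroup (M ⧸ N0) := fun i => ((P.parabolic (J \ {(i : K)})).subgroupOf M).map q
  have hDH' : ∀ i : O, D' ≤ (P.parabolic (J \ {(i : K)})).subgroupOf M := fun i d hd => hDsub i i.2 hd
  have memH : ∀ (i : O) (g : M), q g ∈ H i ↔ (g : K) ∈ P.parabolic (J \ {(i : K)}) := fun i g =>
    memq _ (hN0D.trans (hDH' i)) g
  have hDbH : ∀ i, Db ≤ H i := fun i => Subgroup.map_mono (hDH' i)
  have hcore : ∀ N : Subgroup (M ⧸ N0), N.Normal → N ≤ Db → N = ⊥ := by
    intro N hN hND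
    have h1 : N.comap q ≤ N0 := by
      have : (N.comap q).Normal := hN.comap q
      rw [Subgroup.normal_le_normalCore]
      intro g hg
      exact (memD g).1 (hND hg)
    rw [eq_bot_iff]
    intro g hg
    obtain ⟨g, rfl⟩ := hq g
    have h2 : g ∈ N0 := h1 hg
    rw [mem_bot]
    exact (QuotientGroup.eq_one_iff g).2 h2
  have hHne : ∀ i : O, ∃ g : M, q g ∉ H i := by
    intro i
    have hiJ : (i : K) ∈ J := hOJ i.2
    refine ⟨⟨i, closure_le_parabolic P J hiJ⟩, fun h => ?_⟩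
    rw [memH] at h
    have h6 : P.parabolic {(i : K)} ≤ P.parabolic (J \ {(i : K)}) := by
      refine sup_le (B_le_parabolic P _) ?_
      rw [closure_le]
      exact Set.singleton_subset_iff.2 h
    rw [parabolic_le_iff P (Set.singleton_subset_iff.2 (hJ hiJ)) (Set.sdiff_subset.trans hJ)] at h6
    exact (h6 rfl).2 rfl
  obtain ⟨i₀, hi₀⟩ := hOn
  have hnt : Nontrivial (M ⧸ N0) := by
    obtain ⟨g, hg⟩ := hHne ⟨i₀, hi₀⟩
    exact ⟨q g, 1, fun h => hg (by rw [h]; exact one_mem _)⟩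
  have hsolq : Group.IsSolvable (M ⧸ N0) := Group.isSolvable_of_surjective hq
  obtain ⟨A, hAch, hAcm, hAne⟩ := Cfsg.Agent.Lib.SolvableMinNormal.exists_characteristic_abelian (G := M ⧸ N0)
  have hAn : A.Normal := inferInstance
  have hAc : ∀ a ∈ A, ∀ b ∈ A, a * b = b * a := fun a ha b hb =>
    congrArg Subtype.val (mul_comm' (⟨a, ha⟩ : A) ⟨b, hb⟩)
  have hyA : Iv yq A := fun a ha => Subgroup.characteristic_iff_map_le.1 hAch yq ⟨a, ha, rfl⟩
  -- normal invariant subgroups
  have claim : ∀ N : Subgroup (M ⧸ N0), N.Normal → Iv yq N → N ≠ ⊥ →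
      ∀ g : M ⧸ N0, ∃ a ∈ N, ∃ d ∈ Db, g = a * d := by
    intro N hN hyN' hNne
    let N' : Subgroup K := (N.comap q).map M.subtype
    let T : Subgroup K := N' ⊔ D
    have hN'M : N' ≤ M := by
      rintro _ ⟨g, -, rfl⟩
      exact g.2
    have hTM : T ≤ M := sup_le hN'M hDM
    obtain ⟨L, hL, hTL⟩ := Cfsg.Agent.S0311.result P T ((B_le_parabolic P _).trans le_sup_right)
    have hLJ : L ⊆ J := by
      rw [← parabolic_le_iff P hL hJ, ← hTL]
      exact hTM
    have hJOL : J \ O ⊆ L := by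
      rw [← parabolic_le_iff P hJO hL, ← hTL]
      exact le_sup_right
    have hzT : Iv z T := by
      have h1 : T ≤ T.comap z.toMonoidHom := by
        refine sup_le ?_ ?_
        · rintro _ ⟨g, hg, rfl⟩
          refine mem_sup_left ⟨zM g, ?_, rfl⟩
          have h2 : zM g = m' * yM g * m'⁻¹ := by rw [hyz]; group
          show q (zM g) ∈ N
          rw [h2, map_mul, map_mul, map_inv, hyq]
          exact hN.conj_mem _ (hyN' _ hg) _
        · exact fun d hd => mem_sup_right (hzD d hd)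
      exact h1
    have hO'' : J \ (J \ L) = L := by
      rw [Set.sdiff_sdiff_right_self]
      exact Set.inter_eq_right.2 hLJ
    have hLe : J ⊆ L := by
      by_contra hcon
      have hne : (J \ L).Nonempty := by
        rw [Set.not_subset] at hcon
        obtain ⟨u, hu, hu'⟩ := hcon
        exact ⟨u, hu, hu'⟩
      have h1 := hmin (J \ L) ⟨Set.sdiff_subset, hne, by rw [hO'', ← hTL]; exact hzT⟩
      have h2 : J \ L ⊆ O := by
        rintro u ⟨hu, hu'⟩
        by_contra h3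
        exact hu' (hJOL ⟨hu, h3⟩)
      have h3 : J \ L = O := Set.eq_of_subset_of_ncard_le h2 h1 (Set.toFinite _)
      have h4 : L = J \ O := by rw [← h3, hO'']
      apply hNne
      apply hcore N hN
      intro g hg
      obtain ⟨g, rfl⟩ := hq g
      rw [memD, hD, ← h4, ← hTL]
      exact mem_sup_left ⟨g, hg, rfl⟩
    have hTeq : M ≤ T := by rw [hTL]; exact parabolic_mono P hLe
    have h5 : M ≤ ((N ⊔ Db).comap q).map M.subtype := by
      refine hTeq.trans (sup_le ?_ ?_)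
      · exact Subgroup.map_mono (Subgroup.comap_mono le_sup_left)
      · intro d hd
        exact ⟨⟨d, hDM hd⟩, mem_sup_right ((memD _).2 hd), rfl⟩
    intro g
    obtain ⟨g, rfl⟩ := hq g
    obtain ⟨g', hg', he⟩ := h5 g.2
    have h6 : g' = g := Subtype.ext he
    rw [h6] at hg'
    have h7 : q g ∈ N ⊔ Db := hg'
    obtain ⟨a, ha, d, hd, h8⟩ := (Subgroup.mem_sup_of_normal_left).1 h7
    exact ⟨a, ha, d, hd, h8.symm⟩
  have hAD := claim A hAn hyA hAne
  -- the twisted automorphism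
  obtain ⟨a₀, ha₀, d₀, hd₀, he₀⟩ := hAD (q m'⁻¹)
  have hyzq : ∀ g, yq g = a₀ * (MulAut.conj d₀ * zq) g * a₀⁻¹ := by
    intro g
    obtain ⟨g, rfl⟩ := hq g
    rw [← hyq, hyz, map_mul, map_mul, MulAut.mul_apply, MulAut.conj_apply, ← hzq]
    have h1 : q m' = (a₀ * d₀)⁻¹ := by rw [← he₀, map_inv, inv_inv]
    rw [h1, he₀]
    group
  have hz' : Iv (MulAut.conj d₀ * zq) Db := by
    intro d hd
    obtain ⟨g, rfl⟩ := hq d
    rw [MulAut.mul_apply, MulAut.conj_apply, ← hzq]
    refine mul_mem (mul_mem hd₀ ?_) (inv_mem hd₀)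
    rw [memD] at hd ⊢
    exact hzD _ hd
  -- the permutation
  have hperm : ∀ i : O, ∃ t : O, (P.parabolic (J \ {(i : K)})).map z.toMonoidHom = P.parabolic (J \ {(t : K)}) := by
    intro i
    obtain ⟨t, htJ, ht⟩ := exists_coatom P hzB hJ hzJ (hOJ i.2)
    refine ⟨⟨t, ?_⟩, ht⟩
    by_contra htO
    have h1 : D ≤ P.parabolic (J \ {t}) := by
      rw [← ht, ← hzD.map_eq]
      exact Subgroup.map_mono (hDsub i i.2)
    rw [parabolic_le_iff P hJO (Set.sdiff_subset.trans hJ)] at h1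
    exact (h1 ⟨htJ, htO⟩).2 rfl
  choose f hf using hperm
  have hfinj : Function.Injective f := by
    intro i j hij
    have h1 : (P.parabolic (J \ {(i : K)})).map z.toMonoidHom = (P.parabolic (J \ {(j : K)})).map z.toMonoidHom := by
      rw [hf, hf, hij]
    have h2 := Subgroup.map_injective (f := z.toMonoidHom) z.injective h1
    have h3 : J \ {(i : K)} ⊆ J \ {(j : K)} := by
      rw [← parabolic_le_iff P (Set.sdiff_subset.trans hJ) (Set.sdiff_subset.trans hJ), h2]
    by_contra h4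
    have h5 : (j : K) ∈ J \ {(i : K)} := ⟨hOJ j.2, fun h => h4 (Subtype.ext (Set.mem_singleton_iff.1 h)).symm⟩
    exact (h3 h5).2 rfl
  let τ : Equiv.Perm O := Equiv.ofBijective f (Finite.injective_iff_bijective.1 hfinj)
  have hτf : ∀ i, τ i = f i := fun i => rfl
  obtain ⟨k, hkA, hk⟩ := abs hlat H Db A (by
      -- intersection
      intro g
      obtain ⟨g, rfl⟩ := hq g
      rw [memD]
      constructor
      · intro h i
        rw [memH]
        exact hDsub i i.2 h
      · intro h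
        exact mem_sdiff P hJ g.2 fun s hs => (memH ⟨s, hs⟩ g).1 (h ⟨s, hs⟩))
    hcore hAn hAc hyA hAD (by
      -- double coset
      intro g g' hg hg'
      obtain ⟨g, rfl⟩ := hq g
      obtain ⟨g', rfl⟩ := hq g'
      obtain ⟨w, -, -, hw⟩ := exists_rep P hJ hc O hOJ
      obtain ⟨d, hd, b, hb, he⟩ := hw g g.2 fun s hs h => hg ⟨s, hs⟩ ((memH ⟨s, hs⟩ g).2 h)
      obtain ⟨d', hd', b', hb', he'⟩ := hw g' g'.2 fun s hs h => hg' ⟨s, hs⟩ ((memH ⟨s, hs⟩ g').2 h)
      have h1 : d' * d⁻¹ ∈ D := mul_mem hd' (inv_mem hd)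
      have h2 : b⁻¹ * b' ∈ D := B_le_parabolic P _ (mul_mem (inv_mem hb) hb')
      refine ⟨q ⟨d' * d⁻¹, hDM h1⟩, (memD _).2 h1, q ⟨b⁻¹ * b', hDM h2⟩, (memD _).2 h2, ?_⟩
      rw [← map_mul, ← map_mul]
      congr 1
      apply Subtype.ext
      show (g' : K) = d' * d⁻¹ * g * (b⁻¹ * b')
      rw [he, he']
      group)
    (by
      -- three cosets
      intro i
      have hiJ := hOJ i.2
      have hPi : P.parabolic {(i : K)} ≤ M := parabolic_mono P (Set.singleton_subset_iff.2 hiJ)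
      obtain ⟨n₁, hn₁, n₂, hn₂, h1, h2, h3⟩ := exists_two P (hJ hiJ)
      obtain ⟨u, hu, d₁, hd₁, he₁⟩ := hAD (q ⟨n₁, hPi hn₁⟩)
      obtain ⟨v, hv, d₂, hd₂, he₂⟩ := hAD (q ⟨n₂, hPi hn₂⟩)
      have hu' : u = q ⟨n₁, hPi hn₁⟩ * d₁⁻¹ := by rw [he₁]; group
      have hv' : v = q ⟨n₂, hPi hn₂⟩ * d₂⁻¹ := by rw [he₂]; group
      have hinf : ∀ n ∈ P.parabolic {(i : K)}, n ∈ P.parabolic (J \ {(i : K)}) → n ∈ P.B := by
        intro n hn hn'
        have h4 : n ∈ P.parabolic {(i : K)} ⊓ P.parabolic (J \ {(i : K)}) := ⟨hn, hn'⟩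
        rw [Cfsg.Agent.S0315.result P (Set.singleton_subset_iff.2 (hJ hiJ)) (Set.sdiff_subset.trans hJ),
          Set.inter_sdiff_self, parabolic_empty] at h4
        exact h4
      refine ⟨u, hu, v, hv, ?_, ?_, ?_, ?_⟩
      · intro j hj
        have h4 : P.parabolic {(i : K)} ≤ P.parabolic (J \ {(j : K)}) := parabolic_mono P
          (Set.singleton_subset_iff.2 ⟨hiJ, fun h => hj (Subtype.ext (Set.mem_singleton_iff.1 h)).symm⟩)
        rw [hu', hv']
        exact ⟨mul_mem ((memH _ _).2 (h4 hn₁)) (inv_mem (hDbH j hd₁)),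
          mul_mem ((memH _ _).2 (h4 hn₂)) (inv_mem (hDbH j hd₂))⟩
      · intro h4
        apply h1
        refine hinf n₁ hn₁ ((memH i ⟨n₁, hPi hn₁⟩).1 ?_)
        rw [he₁]
        exact mul_mem h4 (hDbH i hd₁)
      · intro h4
        apply h2
        refine hinf n₂ hn₂ ((memH i ⟨n₂, hPi hn₂⟩).1 ?_)
        rw [he₂]
        exact mul_mem h4 (hDbH i hd₂)
      · intro h4
        apply h3
        refine hinf _ (mul_mem (inv_mem hn₁) hn₂) ((memH i (⟨n₁, hPi hn₁⟩⁻¹ * ⟨n₂, hPi hn₂⟩)).1 ?_)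
        rw [map_mul, map_inv, he₁, he₂]
        have h5 : (u * d₁)⁻¹ * (v * d₂) = d₁⁻¹ * (u⁻¹ * v) * d₂ := by group
        rw [h5]
        exact mul_mem (mul_mem (inv_mem (hDbH i hd₁)) h4) (hDbH i hd₂))
    τ (by
      intro a ha i
      have h1 : yq a = (MulAut.conj d₀ * zq) a := by
        have h2 := hyzq a
        have h3 : (MulAut.conj d₀ * zq) a = a₀⁻¹ * (yq a * a₀) := by rw [h2]; group
        rw [h3, hAc _ (hyA a ha) _ ha₀]
        group
      obtain ⟨g, rfl⟩ := hq a
      rw [h1, MulAut.mul_apply, MulAut.conj_apply, ← hzq]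
      have hd₀H := hDbH (τ i) hd₀
      have h2 : d₀ * q (zM g) * d₀⁻¹ ∈ H (τ i) ↔ q (zM g) ∈ H (τ i) := by
        constructor
        · intro h
          have h3 := mul_mem (mul_mem (inv_mem hd₀H) h) hd₀H
          have h4 : d₀⁻¹ * (d₀ * q (zM g) * d₀⁻¹) * d₀ = q (zM g) := by group
          rwa [h4] at h3
        · intro h
          exact mul_mem (mul_mem hd₀H h) (inv_mem hd₀H)
      rw [h2, memH, memH, hτf, ← hf]
      show z g ∈ _ ↔ _
      constructor
      · rintro ⟨g', hg', h3⟩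
        rwa [← z.injective h3]
      · exact fun h => ⟨g, h, rfl⟩)
    (by
      by_cases h : ∃ i, τ i = i
      · right
        obtain ⟨i, hi⟩ := h
        have h1 : Iv z (P.parabolic (J \ {(i : K)})) := by
          apply iv_of_map_eq
          have h2 := hf i
          rw [← hτf, hi] at h2
          exact h2
        have h2 := hmin {(i : K)} ⟨Set.singleton_subset_iff.2 (hOJ i.2), Set.singleton_nonempty _, h1⟩
        have h3 : {(i : K)} = O := Set.eq_of_subset_of_ncard_le (Set.singleton_subset_iff.2 i.2) h2 (Set.toFinite _)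
        refine ⟨fun a b => Subtype.ext ?_⟩
        have ha : (a : K) ∈ ({(i : K)} : Set K) := by rw [h3]; exact a.2
        have hb : (b : K) ∈ ({(i : K)} : Set K) := by rw [h3]; exact b.2
        rw [Set.mem_singleton_iff] at ha hb
        rw [ha, hb]
      · left
        exact fun i hi => h ⟨i, hi⟩)
    (by
      intro c hcA hyc hc1 i hci
      have h1 := claim (normalClosure {c}) inferInstance (by
        have h2 : normalClosure {c} ≤ (normalClosure {c}).comap yq.toMonoidHom := by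
          have : ((normalClosure {c}).comap yq.toMonoidHom).Normal := inferInstance
          refine normalClosure_le_normal ?_
          rw [Set.singleton_subset_iff]
          show yq c ∈ normalClosure {c}
          rw [hyc]
          exact subset_normalClosure rfl
        exact h2) (by
          intro h
          apply hc1
          have h2 : c ∈ normalClosure {c} := subset_normalClosure rfl
          rwa [h, mem_bot] at h2)
      have h2 : normalClosure {c} ≤ H i := by
        rw [normalClosure, closure_le]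
        intro x hx
        rw [Group.mem_conjugatesOfSet_iff] at hx
        obtain ⟨c', hc', hx⟩ := hx
        rw [Set.mem_singleton_iff] at hc'
        subst hc'
        obtain ⟨g, rfl⟩ := isConj_iff.1 hx
        obtain ⟨a, ha, d, hd, he⟩ := hAD g⁻¹
        have h3 : g = d⁻¹ * a⁻¹ := by rw [← mul_inv_rev, ← he, inv_inv]
        have h4 : g * c' * g⁻¹ = d⁻¹ * c' * d := by
          rw [h3]
          have h5 : a⁻¹ * c' * a = c' := by rw [mul_assoc, hAc c' hcA a ha]; group
          have h6 : d⁻¹ * a⁻¹ * c' * (d⁻¹ * a⁻¹)⁻¹ = d⁻¹ * (a⁻¹ * c' * a) * d := by group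
          rw [h6, h5]
        rw [h4]
        exact mul_mem (mul_mem (inv_mem (hDbH i hd)) hci) (hDbH i hd)
      obtain ⟨g, hg⟩ := hHne i
      obtain ⟨a, ha, d, hd, he⟩ := h1 (q g)
      apply hg
      rw [he]
      exact mul_mem (h2 ha) (hDbH i hd))
    ha₀ hz' hyzq
  obtain ⟨k, rfl⟩ := hq k
  refine ⟨k, k.2, O, hOJ, ⟨i₀, hi₀⟩, ?_⟩
  intro d hd
  have h1 := hk (q ⟨d, hDM hd⟩) ((memD _).2 hd)
  rw [cx_apply] at h1 ⊢
  rw [← map_inv, ← map_mul, ← map_mul, ← hyq, ← map_mul, ← map_mul, memD] at h1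
  exact h1

/-- **[BOR]** A Latin radical automorphism fixing (a conjugate of) a proper parabolic subgroup fixes a Borel subgroup. -/
theorem exists_borel {P : BNPair K} {p : ℕ} [Fact p.Prime] {U : Sylow p K} (F : Frame p P U) {x : MulAut K}
    (hx : Hyp x) {J₀ : Set K} (hJ₀ : J₀ ⊆ P.S) (hne : J₀ ≠ P.S) {g₀ : K} (hg₀ : Iv (cx x g₀) (P.parabolic J₀)) :
    ∃ g, Iv (cx x g) P.B := by
  classical
  have hfin : Finite K := inferInstance
  have hBs := F.sol
  obtain ⟨J, hJ⟩ := Set.exists_min_image {J : Set K | J ⊆ P.S ∧ J ≠ P.S ∧ ∃ g, Iv (cx x g) (P.parabolic J)}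
    Set.ncard (Set.toFinite _) ⟨J₀, hJ₀, hne, g₀, hg₀⟩
  obtain ⟨⟨hJS, hJne, g, hg⟩, hmin⟩ := hJ
  by_cases hJ0 : J = ∅
  · rw [hJ0, parabolic_empty] at hg
    exact ⟨g, hg⟩
  exfalso
  have hJn : J.Nonempty := Set.nonempty_iff_ne_empty.2 hJ0
  have hyR : RC (cx x g) := hx.rc.cx g
  have hMt : P.parabolic J ≠ ⊤ := parabolic_ne_top P hJS hJne
  -- `P_J` is solvable
  have hMsol : Group.IsSolvable (P.parabolic J) := by
    obtain ⟨L, hLJ, hLe, hLsol, -⟩ := radIn_sup P hBs hJS
    have h1 : Iv (cx x g) (P.parabolic L) := iv_of_sub P hyR hMt hLJ hg (by rw [← hLe]; exact le_sup_left)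
    have h2 := hmin L ⟨hLJ.trans hJS, fun h => hJne (Set.Subset.antisymm hJS (h ▸ hLJ)), g, h1⟩
    have h3 : L = J := Set.eq_of_subset_of_ncard_le hLJ h2 (Set.toFinite _)
    rwa [h3] at hLsol
  have hcommJ : ∀ s ∈ J, ∀ t ∈ J, s ≠ t → s * t * s⁻¹ * t⁻¹ ∈ P.B := by
    intro s hs t ht hst
    refine comm_of_solvable P (hJS hs) (hJS ht) hst (Cfsg.Agent.SignalizersComponents.ComponentExists.isSolvable_of_le (parabolic_mono P ?_) hMsol)
    rintro y (rfl | rfl)
    · exact hs
    · exact ht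
  obtain ⟨m, hm, hmB⟩ := exists_conj_fix P U F.norm (B_le_parabolic P J) hg
  obtain ⟨k, -, O, hOJ, hOn, hk⟩ := step P (lat_cx hx.lat g) hJS hJn hg hMsol hcommJ hm rfl hmB
  rw [cx_cx] at hk
  have h1 := hmin (J \ O) ⟨Set.sdiff_subset.trans hJS, fun h => hJne (Set.Subset.antisymm hJS
    (h ▸ Set.sdiff_subset)), g * k, hk⟩
  obtain ⟨s, hs⟩ := hOn
  have h2 : (J \ O).ncard < J.ncard := Set.ncard_lt_ncard (Set.ssubset_iff_subset_ne.2 ⟨Set.sdiff_subset, fun h => by
    have h3 : s ∈ J \ O := by rw [h]; exact hOJ hs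
    exact h3.2 hs⟩) (Set.toFinite _)
  omega

end Cfsg.Agent.H575.LQ
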